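import Mathlib
import Cfsg.Agent.Lib.Helper14.Spec.Defs

set_option autoImplicit false

/-! SPEC (S2362), package TCYC: in the commutant of an irreducible endomorphism, an element of
order exactly `m` generates all the elements whose `m`-th power is one. -/

universe u

namespace Cfsg.Agent.Lib.Helper65.Spec

open Cfsg.Agent.Lib.Helper14.Spec Module

theorem pkgTorusCyc : PkgTorusCyc.{u} := by
  intro hModel F _ _ W _ _ _ x hx m h c hm hhx hcx hh hc
  obtain ⟨K, _, _, _, φ, hφ, hcomm, hcard⟩ := hModel x hx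
  obtain ⟨a, rfl⟩ := (hcomm h).mp hhx
  obtain ⟨b, rfl⟩ := (hcomm c).mp hcx
  have hpow : ∀ (z : K) (k : ℕ), (φ z) ^ k = 1 ↔ z ^ k = 1 := by
    intro z k
    rw [← map_pow, ← map_one φ]
    exact hφ.eq_iff
  have hprim : IsPrimitiveRoot a m :=
    ⟨(hpow a m).mp ((hh m).mpr dvd_rfl), fun l hl => (hh l).mp ((hpow a l).mpr hl)⟩
  have hb : b ^ m = 1 := (hpow b m).mp hc
  have hne : NeZero m := ⟨hm.ne'⟩
  obtain ⟨i, -, hi⟩ := hprim.eq_pow_of_pow_eq_one hb
  exact ⟨i, by rw [← map_pow, hi]⟩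

end Cfsg.Agent.Lib.Helper65.Spec
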